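import Cfsg.Agent.Lib.Leech.Word
import Cfsg.Agent.Lib.PermComp.Core
import Cfsg.Prelude.Def_Spor_Conway

/-!
# From the stabiliser of a lattice vector to an explicit permutation group

A finite group `K` acting on `X`, an injective family `x : Fin n → X`, and a subgroup `P` of
`Perm (Fin n)` of the order of `K` whose generators all come from elements of `K` : then `K ≃* P`.
No faithfulness has to be proved, the count does it.  The instance: `K` the stabiliser of a vector
`u` of the lattice, `x` the pairs `{a, u - a}`.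
-/

set_option autoImplicit false

namespace Cfsg.Agent.Lib.ConwayP.Bridge

open Cfsg Subgroup
open scoped Pointwise

section Generic

variable {K X : Type*} [Group K] [MulAction K X] {n : ℕ}

/-- The pairs `(g, t)` with `g` acting on the family as `t ∈ P`. -/
def rel (x : Fin n → X) (P : Subgroup (Equiv.Perm (Fin n))) : Subgroup (K × Equiv.Perm (Fin n)) where
  carrier := {q | (∀ i, q.1 • x i = x (q.2 i)) ∧ q.2 ∈ P}
  one_mem' := ⟨fun i => by simp, P.one_mem⟩
  mul_mem' := by
    rintro a b ⟨ha, ha'⟩ ⟨hb, hb'⟩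
    refine ⟨fun i => ?_, P.mul_mem ha' hb'⟩
    simp only [Prod.fst_mul, Prod.snd_mul, Equiv.Perm.mul_apply, mul_smul, hb, ha]
  inv_mem' := by
    rintro a ⟨ha, ha'⟩
    refine ⟨fun i => ?_, P.inv_mem ha'⟩
    simp only [Prod.fst_inv, Prod.snd_inv]
    rw [inv_smul_eq_iff, ha]
    simp

theorem nonempty_equiv [Finite K] (x : Fin n → X) (hx : Function.Injective x)
    (A : Set (Equiv.Perm (Fin n))) (hcard : Nat.card (closure A) = Nat.card K)
    (hA : ∀ t ∈ A, ∃ g : K, ∀ i, g • x i = x (t i)) : Nonempty (K ≃* closure A) := by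
  classical
  set P := closure A with hP
  let R : Subgroup (K × Equiv.Perm (Fin n)) := rel x P
  let f₁ : R →* K := (MonoidHom.fst K (Equiv.Perm (Fin n))).comp R.subtype
  let f₂ : R →* P :=
    { toFun := fun q => ⟨q.1.2, q.2.2⟩
      map_one' := rfl
      map_mul' := fun _ _ => rfl }
  have h₁ : Function.Injective f₁ := by
    rintro ⟨⟨g, t⟩, h⟩ ⟨⟨g', t'⟩, h'⟩ he
    have hg : g = g' := he
    subst hg
    have ht : t = t' := by
      ext i
      have h1 := h.1 i
      have h2 := h'.1 i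
      simp only at h1 h2
      rw [hx (h1.symm.trans h2)]
    subst ht
    rfl
  have h₂ : Function.Surjective f₂ := by
    have hle : P ≤ R.map (MonoidHom.snd K (Equiv.Perm (Fin n))) := by
      rw [hP, closure_le]
      intro t ht
      obtain ⟨g, hg⟩ := hA t ht
      exact ⟨(g, t), ⟨hg, subset_closure ht⟩, rfl⟩
    rintro ⟨t, ht⟩
    obtain ⟨⟨g, t'⟩, hq, rfl⟩ := hle ht
    exact ⟨⟨(g, t'), hq⟩, rfl⟩
  have hc₁ : Nat.card K ≤ Nat.card R := by
    rw [← hcard]
    exact Nat.card_le_card_of_surjective f₂ h₂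
  have hb₁ : Function.Bijective f₁ := h₁.bijective_of_nat_card_le hc₁
  have hc₂ : Nat.card R ≤ Nat.card P := by
    rw [hcard]
    exact Nat.card_le_card_of_injective f₁ h₁
  have hfin : Finite R := Nat.finite_of_card_ne_zero (by
    have h3 : Nat.card R = Nat.card K := le_antisymm (Nat.card_le_card_of_injective f₁ h₁) hc₁
    rw [h3]
    exact Nat.card_pos.ne')
  have hb₂ : Function.Bijective f₂ := h₂.bijective_of_nat_card_le hc₂
  exact ⟨(MulEquiv.ofBijective f₁ hb₁).symm.trans (MulEquiv.ofBijective f₂ hb₂)⟩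

theorem card_closure_le [Finite K] (x : Fin n → X) (hx : Function.Injective x)
    (A : Set (Equiv.Perm (Fin n)))
    (hA : ∀ t ∈ A, ∃ g : K, ∀ i, g • x i = x (t i)) : Nat.card (closure A) ≤ Nat.card K := by
  classical
  set P := closure A with hP
  let R : Subgroup (K × Equiv.Perm (Fin n)) := rel x P
  let f₁ : R →* K := (MonoidHom.fst K (Equiv.Perm (Fin n))).comp R.subtype
  let f₂ : R →* P :=
    { toFun := fun q => ⟨q.1.2, q.2.2⟩
      map_one' := rfl
      map_mul' := fun _ _ => rfl }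
  have h₁ : Function.Injective f₁ := by
    rintro ⟨⟨g, t⟩, h⟩ ⟨⟨g', t'⟩, h'⟩ he
    have hg : g = g' := he
    subst hg
    have ht : t = t' := by
      ext i
      have h1 := h.1 i
      have h2 := h'.1 i
      simp only at h1 h2
      rw [hx (h1.symm.trans h2)]
    subst ht
    rfl
  have h₂ : Function.Surjective f₂ := by
    have hle : P ≤ R.map (MonoidHom.snd K (Equiv.Perm (Fin n))) := by
      rw [hP, closure_le]
      intro t ht
      obtain ⟨g, hg⟩ := hA t ht
      exact ⟨(g, t), ⟨hg, subset_closure ht⟩, rfl⟩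
    rintro ⟨t, ht⟩
    obtain ⟨⟨g, t'⟩, hq, rfl⟩ := hle ht
    exact ⟨⟨(g, t'), hq⟩, rfl⟩
  exact (Nat.card_le_card_of_surjective f₂ h₂).trans (Nat.card_le_card_of_injective f₁ h₁)

end Generic

open Cfsg.Agent.Lib.Golay.Core Cfsg.Agent.Lib.Golay.Perm Cfsg.Agent.Lib.Leech.Lat
  Cfsg.Agent.Lib.Leech.Vec Cfsg.Agent.Lib.Leech.Word Cfsg.Agent.Lib.PermComp.Core

/-- The lattice vector of a code. -/
noncomputable def vecL (n : ℕ) : L := by
  classical
  exact if h : dec n ∈ leechLattice then ⟨dec n, h⟩ else 0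

theorem vecL_coe {n : ℕ} (h : dec n ∈ leechLattice) : ((vecL n : L) : GolayPt → ℤ) = dec n := by
  unfold vecL
  rw [dif_pos h]

/-- The stabiliser of `u`, as a group of permutations of the lattice. -/
abbrev KK (u : L) : Subgroup (Equiv.Perm L) := Co0 ⊓ MulAction.stabilizer (Equiv.Perm L) u

theorem card_KK (u : L) : Nat.card (KK u) = Nat.card (MulAction.stabilizer Co0 u) := by
  refine Nat.card_congr ⟨fun g => ⟨⟨g.1, g.2.1⟩, g.2.2⟩, fun g => ⟨g.1.1, g.1.2, g.2⟩, fun _ => rfl, fun _ => rfl⟩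

/-- The digit recombination. -/
def fpD (n : ℕ) : ℕ → ℕ
  | 0 => 0
  | k + 1 => fpD n k + img n k * 32 ^ k

theorem fpD_congr {n m : ℕ} (h : ∀ k < 24, img n k = img m k) : ∀ k ≤ 24, fpD n k = fpD m k := by
  intro k hk
  induction k with
  | zero => rfl
  | succ k ih => simp only [fpD]; rw [ih (by omega), h k (by omega)]

theorem img_eq_of_dec {n m : ℕ} (h : dec n = dec m) : ∀ k < 24, img n k = img m k := by
  intro k hk
  have h1 := congrFun h (pt k)
  rw [dec_pt n hk, dec_pt m hk] at h1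
  omega

/-- `dec` is injective on codes that are their own digit recombination. -/
theorem code_eq_of_dec {n m : ℕ} (hn : fpD n 24 = n) (hm : fpD m 24 = m) (h : dec n = dec m) : n = m := by
  rw [← hn, ← hm]
  exact fpD_congr (img_eq_of_dec h) 24 le_rfl

/-- The digits of the sum. -/
def sumOK (nU a b : ℕ) : Bool :=
  (List.range 24).all fun k => Nat.beq (Nat.add (img a k) (img b k)) (Nat.add (img nU k) 16)

theorem dec_add_of_sumOK {nU a b : ℕ} (h : sumOK nU a b = true) (p : GolayPt) :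
    dec a p + dec b p = dec nU p := by
  have h1 := List.all_eq_true.1 h (idx p) (List.mem_range.2 (idx_lt p))
  have h2 : img a (idx p) + img b (idx p) = img nU (idx p) + 16 := Nat.eq_of_beq_eq_true h1
  unfold dec
  omega

/-- All the checks on the list of pairs, other than the ones on the group elements. -/
def pairsOK (N nU : ℕ) (As Bs : List ℕ) : Bool :=
  (Nat.beq As.length N) && (Nat.beq Bs.length N) &&
  (List.range N).all fun i =>
    inL (As.getD i 0) && inL (Bs.getD i 0) && sumOK nU (As.getD i 0) (Bs.getD i 0) &&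
    Nat.beq (fpD (As.getD i 0) 24) (As.getD i 0) && Nat.beq (fpD (Bs.getD i 0) 24) (Bs.getD i 0) &&
    Nat.blt (As.getD i 0) (Bs.getD i 0) &&
    Nat.blt (As.getD i 0) (As.getD (i + 1) (2 ^ 120))

/-- The check for an element of the stabiliser given by a word, acting on the pairs as a code. -/
def genOK (N w mask nU : ℕ) (As Bs : List ℕ) (c : ℕ) (wd : List (ℕ × ℕ)) : Bool :=
  runW wd nU nU && (List.range N).all fun i =>
    runW wd (As.getD i 0) (As.getD (app w mask c i) 0) ||
      runW wd (As.getD i 0) (Bs.getD (app w mask c i) 0)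

/-- The family of pairs. -/
noncomputable def xx (As Bs : List ℕ) (i : ℕ) : Set L := {vecL (As.getD i 0), vecL (Bs.getD i 0)}

section
variable {N nU : ℕ} {As Bs : List ℕ}

theorem As_mono (h : pairsOK N nU As Bs = true) :
    ∀ i j, i < j → j < N → As.getD i 0 < As.getD j 0 := by
  simp only [pairsOK, Bool.and_eq_true, List.all_eq_true, List.mem_range] at h
  obtain ⟨⟨h1, _⟩, h3⟩ := h
  have hlen : As.length = N := Nat.eq_of_beq_eq_true h1
  have step : ∀ i, i + 1 < N → As.getD i 0 < As.getD (i + 1) 0 := by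
    intro i hi
    have h4 := (h3 i (by omega)).2
    have h5 : As.getD (i + 1) (2 ^ 120) = As.getD (i + 1) 0 := by
      rw [List.getD_eq_getElem _ _ (by omega), List.getD_eq_getElem _ _ (by omega)]
    rw [h5] at h4
    simpa [Nat.blt_eq] using h4
  intro i j hij hj
  induction j, hij using Nat.le_induction with
  | base => exact step i hj
  | succ j hij ih => exact (ih (by omega)).trans (step j hj)

theorem pair_facts (h : pairsOK N nU As Bs = true) {i : ℕ} (hi : i < N) :
    dec (As.getD i 0) ∈ leechLattice ∧ dec (Bs.getD i 0) ∈ leechLattice ∧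
    (∀ p, dec (As.getD i 0) p + dec (Bs.getD i 0) p = dec nU p) ∧
    fpD (As.getD i 0) 24 = As.getD i 0 ∧ fpD (Bs.getD i 0) 24 = Bs.getD i 0 ∧
    As.getD i 0 < Bs.getD i 0 := by
  simp only [pairsOK, Bool.and_eq_true, List.all_eq_true, List.mem_range] at h
  obtain ⟨h1, h3⟩ := h
  obtain ⟨⟨⟨⟨⟨⟨a1, a2⟩, a3⟩, a4⟩, a5⟩, a6⟩, _⟩ := h3 i hi
  refine ⟨mem_of_inL a1, mem_of_inL a2, dec_add_of_sumOK a3, Nat.eq_of_beq_eq_true a4,
    Nat.eq_of_beq_eq_true a5, ?_⟩
  simpa [Nat.blt_eq] using a6

theorem vec_sum (h : pairsOK N nU As Bs = true) {i : ℕ} (hi : i < N) {u : L}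
    (hu : (u : GolayPt → ℤ) = dec nU) : vecL (Bs.getD i 0) = u - vecL (As.getD i 0) := by
  obtain ⟨h1, h2, h3, -⟩ := pair_facts h hi
  apply Subtype.ext
  funext p
  show ((vecL (Bs.getD i 0) : L) : GolayPt → ℤ) p =
    (u : GolayPt → ℤ) p - ((vecL (As.getD i 0) : L) : GolayPt → ℤ) p
  rw [vecL_coe h1, vecL_coe h2, hu]
  have := h3 p
  omega

theorem xx_injective (h : pairsOK N nU As Bs = true) :
    Function.Injective (fun i : Fin N => xx As Bs i) := by
  intro i j hij
  simp only [xx] at hij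
  obtain ⟨a1, a2, a3, a4, a5, a6⟩ := pair_facts h i.2
  obtain ⟨b1, b2, b3, b4, b5, b6⟩ := pair_facts h j.2
  have hA : ∀ {k : ℕ}, i.1 ≠ k → k < N → As.getD i.1 0 ≠ As.getD k 0 := by
    intro k hk hkN
    rcases Nat.lt_or_gt_of_ne hk with hh | hh
    · exact (As_mono h _ _ hh hkN).ne
    · exact (As_mono h _ _ hh i.2).ne'
  by_contra hne
  have hne' : i.1 ≠ j.1 := fun e => hne (Fin.ext e)
  have hmem : vecL (As.getD i.1 0) ∈ ({vecL (As.getD j.1 0), vecL (Bs.getD j.1 0)} : Set L) := by
    rw [← hij]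
    exact Set.mem_insert _ _
  have hmem2 : vecL (Bs.getD j.1 0) ∈ ({vecL (As.getD i.1 0), vecL (Bs.getD i.1 0)} : Set L) := by
    rw [hij]
    exact Set.mem_insert_of_mem _ rfl
  rcases hmem with e | e
  · have e1 := congrArg Subtype.val e
    rw [vecL_coe a1, vecL_coe b1] at e1
    exact hA hne' j.2 (code_eq_of_dec a4 b4 e1)
  · have e1 := congrArg Subtype.val e
    rw [vecL_coe a1, vecL_coe b2] at e1
    have e2 : As.getD i.1 0 = Bs.getD j.1 0 := code_eq_of_dec a4 b5 e1
    rcases hmem2 with f | f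
    · have f1 := congrArg Subtype.val f
      rw [vecL_coe b2, vecL_coe a1] at f1
      have f2 : Bs.getD j.1 0 = As.getD i.1 0 := code_eq_of_dec b5 a4 f1
      -- then a_j = b_i
      have : dec (As.getD j.1 0) = dec (Bs.getD i.1 0) := by
        funext p
        have h1 := a3 p
        have h2 := b3 p
        rw [e2] at h1
        omega
      have e3 := code_eq_of_dec b4 a5 this
      omega
    · have f1 := congrArg Subtype.val (Set.mem_singleton_iff.1 f)
      rw [vecL_coe b2, vecL_coe a2] at f1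
      have f2 : Bs.getD j.1 0 = Bs.getD i.1 0 := code_eq_of_dec b5 a5 f1
      have : dec (As.getD j.1 0) = dec (As.getD i.1 0) := by
        funext p
        have h1 := a3 p
        have h2 := b3 p
        rw [f2] at h2
        omega
      exact hA hne' j.2 (code_eq_of_dec a4 b4 this.symm)

end

/-- The element of the stabiliser of a word. -/
theorem smul_pair {N nU w mask : ℕ} {As Bs : List ℕ} {u : L} (hu : (u : GolayPt → ℤ) = dec nU)
    (hp : pairsOK N nU As Bs = true) {c : ℕ} {wd : List (ℕ × ℕ)}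
    (hg : genOK N w mask nU As Bs c wd = true) (hlt : ∀ i < N, app w mask c i < N) :
    ∃ g : KK u, ∀ i : ℕ, (hi : i < N) → g • xx As Bs i = xx As Bs (app w mask c i) := by
  simp only [genOK, Bool.and_eq_true, List.all_eq_true, List.mem_range] at hg
  obtain ⟨hu0, hrun⟩ := hg
  have hnU : dec nU ∈ leechLattice := by
    rw [← hu]
    exact u.2
  have hfix : wG wd • u = u := by
    apply Subtype.ext
    have := wG_smul wd hu0 hnU
    have e : u = ⟨dec nU, hnU⟩ := Subtype.ext hu
    rw [e]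
    exact (wG_smul wd hu0 hnU).trans rfl
  refine ⟨⟨(wG wd).1, (wG wd).2, hfix⟩, fun i hi => ?_⟩
  have hj := hlt i hi
  obtain ⟨a1, a2, -⟩ := pair_facts hp hi
  obtain ⟨b1, b2, -⟩ := pair_facts hp hj
  have hsm : ∀ v : L, ((⟨(wG wd).1, (wG wd).2, hfix⟩ : KK u) • v : L) = wG wd • v := fun _ => rfl
  have hb : ∀ {k : ℕ}, k < N → ∀ g : Co0, g • u = u →
      g • vecL (Bs.getD k 0) = u - g • vecL (As.getD k 0) := by
    intro k hk g hgu
    rw [vec_sum hp hk hu, Cfsg.Agent.Lib.Leech.Lat.smul_sub, hgu]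
  have hvA : vecL (As.getD i 0) = ⟨dec (As.getD i 0), a1⟩ := Subtype.ext (vecL_coe a1)
  unfold xx
  rw [Set.smul_set_insert, Set.smul_set_singleton, hsm, hsm, hb hi _ hfix]
  rcases Bool.or_eq_true_iff.1 (hrun i hi) with h | h
  · have e : wG wd • vecL (As.getD i 0) = vecL (As.getD (app w mask c i) 0) := by
      apply Subtype.ext
      rw [hvA, wG_smul wd h a1, vecL_coe b1]
    rw [e, ← vec_sum hp hj hu]
  · have e : wG wd • vecL (As.getD i 0) = vecL (Bs.getD (app w mask c i) 0) := by
      apply Subtype.ext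
      rw [hvA, wG_smul wd h a1, vecL_coe b2]
    rw [e, vec_sum hp hj hu, sub_sub_cancel, Set.pair_comm]

theorem H_gens {N nU w mask : ℕ} {As Bs : List ℕ} {u : L} (hu : (u : GolayPt → ℤ) = dec nU)
    (hp : pairsOK N nU As Bs = true) (TW : List (ℕ × List (ℕ × ℕ)))
    (hTW : ∀ q ∈ TW, genOK N w mask nU As Bs q.1 q.2 = true) :
    ∀ t ∈ {g | ∃ c ∈ TW.map Prod.fst, Rep w mask (Equiv.refl (Fin N)) c g}, ∃ g : KK u,
      ∀ i : Fin N, g • xx As Bs i = xx As Bs (t i) := by
  rintro t ⟨c, hc, hr⟩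
  obtain ⟨q, hq, rfl⟩ := List.mem_map.1 hc
  have happ : ∀ i : Fin N, app w mask q.1 i.1 = (t i).1 := fun i => hr i
  obtain ⟨g, hg⟩ := smul_pair (w := w) (mask := mask) hu hp (hTW q hq) (by
    intro i hi
    have := happ ⟨i, hi⟩
    simp only at this
    rw [this]
    exact (t _).2)
  refine ⟨g, fun i => ?_⟩
  have := hg i.1 i.2
  rw [happ i] at this
  exact this

/-- The upper bound for the group generated. -/
theorem card_H_le {N nU w mask : ℕ} {As Bs : List ℕ} {u : L} (hu : (u : GolayPt → ℤ) = dec nU)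
    (hp : pairsOK N nU As Bs = true) (TW : List (ℕ × List (ℕ × ℕ)))
    (hTW : ∀ q ∈ TW, genOK N w mask nU As Bs q.1 q.2 = true) [Finite (KK u)] :
    Nat.card (H w mask (Equiv.refl (Fin N)) (TW.map Prod.fst)) ≤ Nat.card (MulAction.stabilizer Co0 u) := by
  rw [← card_KK]
  exact card_closure_le (fun i : Fin N => xx As Bs i) (xx_injective hp) _ (H_gens hu hp TW hTW)

/-- The main theorem of this file. -/
theorem equiv_of_cert {N nU w mask : ℕ} {As Bs : List ℕ} {u : L} (hu : (u : GolayPt → ℤ) = dec nU)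
    (hp : pairsOK N nU As Bs = true) (TW : List (ℕ × List (ℕ × ℕ)))
    (hTW : ∀ q ∈ TW, genOK N w mask nU As Bs q.1 q.2 = true)
    (hcard : Nat.card (H w mask (Equiv.refl (Fin N)) (TW.map Prod.fst)) = Nat.card (MulAction.stabilizer Co0 u)) :
    Nonempty (KK u ≃* H w mask (Equiv.refl (Fin N)) (TW.map Prod.fst)) := by
  have hfin : Finite (KK u) := Nat.finite_of_card_ne_zero (by
    rw [card_KK, ← hcard]
    exact Nat.card_pos.ne')
  refine nonempty_equiv (fun i : Fin N => xx As Bs i) (xx_injective hp) _ ?_ ?_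
  · exact hcard.trans (card_KK u).symm
  · exact H_gens hu hp TW hTW

end Cfsg.Agent.Lib.ConwayP.Bridge
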