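import Cfsg.Agent.Lib.ConwayP.LatSpan

/-!
# The vector fixed by `Co₂`
-/

set_option autoImplicit false
set_option maxRecDepth 100000

namespace Cfsg.Agent.Lib.ConwayP.Co2Base

open Cfsg Cfsg.Agent.Lib.Leech.Vec Cfsg.Agent.Lib.ConwayP.Bridge

/-- The code of the fixed vector. -/
def nU : ℕ := 852206658587909773353650494292640276

theorem hu : ((Cfsg.Spor.leechU : Cfsg.leechLattice) : Cfsg.GolayPt → ℤ) = dec nU := by
  have h : ∀ p : Cfsg.GolayPt, Cfsg.Spor.vecU p = dec nU p := by decide +kernel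
  exact funext h

theorem sq_U : sqNorm ((Cfsg.Spor.leechU : Cfsg.leechLattice) : Cfsg.GolayPt → ℤ) = 32 := by
  show sqNorm Cfsg.Spor.vecU = 32
  decide +kernel

theorem card_stab : Nat.card (MulAction.stabilizer Co0 Cfsg.Spor.leechU) = 42305421312000 :=
  Cfsg.Agent.Lib.Leech.Order.card_stab32 sq_U

theorem card_K : Nat.card (KK Cfsg.Spor.leechU) = 42305421312000 := by
  rw [card_KK, card_stab]

instance finKK : Finite (KK Cfsg.Spor.leechU) := Nat.finite_of_card_ne_zero (by
  rw [card_K]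
  norm_num)

end Cfsg.Agent.Lib.ConwayP.Co2Base
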