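import Cfsg.Agent.Lib.Schur.PcMain

/-!
# A faster check of polycyclic tail certificates

The same certificates as in `PcMain`, with a check that is better suited to evaluation in the kernel:
a collector with a zipper, sparse vectors merged rather than inserted, and the tails already known
to vanish kept in the bits of a natural number.  Every row of the certificate is meant to be checked in
a declaration of its own.
-/

set_option autoImplicit false

namespace Cfsg.Agent.Lib.ConwayP.PcFast

open Subgroup Cfsg.Agent.Lib.Schur.PcCert Cfsg.Agent.Lib.Schur.PcGroup Cfsg.Agent.Lib.Schur.PcMain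

/-! ### The collector -/

/-- Collect, from left to right: `pre` is the part already treated, reversed. -/
def collectZ (S : Sys) : ℕ → List ℕ → List ℕ → List ℕ → List ℕ × List ℕ
  | 0, pre, suf, acc => (pre.reverse ++ suf, acc)
  | _ + 1, pre, [], acc => (pre.reverse, acc)
  | f + 1, [], x :: suf, acc => collectZ S f [x] suf acc
  | f + 1, t :: pre, x :: suf, acc =>
    bif Nat.blt x t && Nat.blt t S.n then
      collectZ S f pre (x :: (S.rule t x ++ suf)) (tidx t x :: acc)
    else bif Nat.beq x t && Nat.blt x S.n &&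
        decide ((x :: t :: pre).take S.p = List.replicate S.p x) then
      collectZ S f ((x :: t :: pre).drop S.p) (S.rule x x ++ suf) (tidx x x :: acc)
    else
      collectZ S f (x :: t :: pre) suf acc

/-- Collect a word. -/
def colZ (S : Sys) (f : ℕ) (w : List ℕ) : List ℕ × List ℕ := collectZ S f [] w []

section Spec

variable {Γ : Type*} [Group Γ] {A : Type*} [CommGroup A] {ι : A →* Γ}
variable {S : Sys} {g : ℕ → Γ} {V : ℕ → A}

lemma collectZ_spec (hι : ∀ a x, ι a * x = x * ι a) (H : Holds ι S g V) (f : ℕ) (pre suf acc : List ℕ) :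
    wEval g (pre.reverse ++ suf) * ι (tprod V acc) =
      wEval g (collectZ S f pre suf acc).1 * ι (tprod V (collectZ S f pre suf acc).2) := by
  induction f generalizing pre suf acc with
  | zero => rfl
  | succ f ih =>
    cases suf with
    | nil =>
      cases pre <;> simp [collectZ]
    | cons x suf =>
      cases pre with
      | nil =>
        simp only [collectZ]
        rw [← ih [x] suf acc]
        simp
      | cons t pre =>
        simp only [collectZ]
        cases h1 : (Nat.blt x t && Nat.blt t S.n) with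
        | true =>
          simp only [cond_true]
          rw [← ih pre _ _]
          simp only [Bool.and_eq_true, Nat.blt_eq] at h1
          have hc := H.comm t x h1.1 h1.2
          rw [wEval_cons] at hc
          simp only [List.reverse_cons, List.append_assoc, wEval_append, wEval_cons, wEval_nil, one_mul,
            tprod_cons, map_mul, List.cons_append, mul_assoc]
          congr 1
          rw [← mul_assoc (g t), hc]
          simp only [mul_assoc]
          congr 1
          congr 1
          rw [← mul_assoc (ι (V (tidx t x))), hι]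
          simp only [mul_assoc]
        | false =>
          simp only [cond_false]
          cases h2 : (Nat.beq x t && Nat.blt x S.n && decide ((x :: t :: pre).take S.p = List.replicate S.p x)) with
          | true =>
            simp only [cond_true]
            rw [← ih _ _ _]
            simp only [Bool.and_eq_true, decide_eq_true_eq, Nat.blt_eq] at h2
            have hp := H.pow x h2.1.2
            have e : wEval g ((t :: pre).reverse ++ x :: suf) =
                wEval g ((x :: t :: pre).reverse ++ suf) := by simp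
            have e2 : (x :: t :: pre).reverse =
                ((x :: t :: pre).drop S.p).reverse ++ ((x :: t :: pre).take S.p).reverse := by
              rw [← List.reverse_append, List.take_append_drop]
            rw [e, e2, h2.2, List.reverse_replicate]
            simp only [wEval_append, wEval_replicate, hp, tprod_cons, map_mul, mul_assoc]
            congr 1
            congr 1
            rw [← mul_assoc (ι (V (tidx x x))), hι]
            simp only [mul_assoc]
          | false =>
            simp only [cond_false]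
            rw [← ih _ _ _]
            simp

lemma colZ_spec (hι : ∀ a x, ι a * x = x * ι a) (H : Holds ι S g V) (f : ℕ) (w : List ℕ) :
    wEval g w = wEval g (colZ S f w).1 * ι (tprod V (colZ S f w).2) := by
  have := collectZ_spec hι H f [] w []
  simpa [colZ] using this

end Spec

/-! ### Merging sparse vectors -/

/-- Is the integer zero? -/
def isZ : ℤ → Bool
  | Int.ofNat n => Nat.beq n 0
  | Int.negSucc _ => false

lemma isZ_true {z : ℤ} (h : isZ z = true) : z = 0 := by
  cases z with
  | ofNat n =>
    have : n = 0 := Nat.eq_of_beq_eq_true h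
    subst this
    rfl
  | negSucc n => simp [isZ] at h

/-- Merge a term in a vector; `r` is the continuation. -/
def mergeIn (x : ℕ × ℤ) (r : List (ℕ × ℤ) → List (ℕ × ℤ)) : List (ℕ × ℤ) → List (ℕ × ℤ)
  | [] => x :: r []
  | y :: ys =>
    bif Nat.blt x.1 y.1 then x :: r (y :: ys)
    else bif Nat.blt y.1 x.1 then y :: mergeIn x r ys
    else bif isZ (x.2 + y.2) then r ys
    else (x.1, x.2 + y.2) :: r ys

/-- Merge two vectors. -/
def mergeS : List (ℕ × ℤ) → List (ℕ × ℤ) → List (ℕ × ℤ)
  | [], b => b
  | x :: xs, b => mergeIn x (mergeS xs) b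

/-- Merge pairs of vectors. -/
def pairUp : List (List (ℕ × ℤ)) → List (List (ℕ × ℤ))
  | a :: b :: rest => mergeS a b :: pairUp rest
  | l => l

/-- Merge a list of vectors. -/
def mergeAll : ℕ → List (List (ℕ × ℤ)) → List (ℕ × ℤ)
  | _, [] => []
  | _, [a] => a
  | 0, a :: b :: l => (a :: b :: l).flatten
  | f + 1, a :: b :: l => mergeAll f (pairUp (a :: b :: l))

/-- Normal form of a vector. -/
def normF (s : List (ℕ × ℤ)) : List (ℕ × ℤ) := mergeAll 40 (s.map fun q => [q])

section SV

variable {A : Type*} [CommGroup A] (V : ℕ → A)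

lemma evS_mergeIn (x : ℕ × ℤ) (r : List (ℕ × ℤ) → List (ℕ × ℤ)) (E : A)
    (hr : ∀ b, evS V (r b) = E * evS V b) (b : List (ℕ × ℤ)) :
    evS V (mergeIn x r b) = V x.1 ^ x.2 * E * evS V b := by
  induction b with
  | nil =>
    simp only [mergeIn, evS_cons, hr, mul_assoc]
  | cons y ys ih =>
    simp only [mergeIn]
    cases h1 : Nat.blt x.1 y.1 with
    | true =>
      simp only [cond_true, evS_cons, hr, mul_assoc]
    | false =>
      simp only [cond_false]
      cases h2 : Nat.blt y.1 x.1 with
      | true =>
        simp only [cond_true, evS_cons, ih]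
        simp only [mul_assoc, mul_left_comm, mul_comm]
      | false =>
        simp only [cond_false]
        have h3 : x.1 = y.1 := by
          have h4 : ¬ x.1 < y.1 := by
            intro h
            have : Nat.blt x.1 y.1 = true := by simpa using h
            rw [h1] at this
            exact absurd this (by simp)
          have h5 : ¬ y.1 < x.1 := by
            intro h
            have : Nat.blt y.1 x.1 = true := by simpa using h
            rw [h2] at this
            exact absurd this (by simp)
          omega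
        cases h6 : isZ (x.2 + y.2) with
        | true =>
          simp only [cond_true, evS_cons, hr]
          have h7 := isZ_true h6
          have h8 : V x.1 ^ x.2 * V y.1 ^ y.2 = 1 := by
            rw [← h3, ← zpow_add, h7, zpow_zero]
          calc E * evS V ys = (V x.1 ^ x.2 * V y.1 ^ y.2) * (E * evS V ys) := by rw [h8, one_mul]
            _ = _ := by simp only [mul_assoc, mul_left_comm, mul_comm]
        | false =>
          simp only [cond_false, evS_cons, hr]
          rw [zpow_add, ← h3]
          simp only [mul_assoc, mul_left_comm, mul_comm]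

lemma evS_mergeS (a b : List (ℕ × ℤ)) : evS V (mergeS a b) = evS V a * evS V b := by
  induction a generalizing b with
  | nil => simp [mergeS]
  | cons x xs ih =>
    rw [mergeS, evS_mergeIn V x (mergeS xs) (evS V xs) ih, evS_cons]

/-- The product of the values of a list of vectors. -/
def evL (l : List (List (ℕ × ℤ))) : A := (l.map (evS V)).prod

lemma evL_pairUp (l : List (List (ℕ × ℤ))) : evL V (pairUp l) = evL V l := by
  induction l using pairUp.induct with
  | case1 a b rest ih =>
    simp only [pairUp, evL, List.map_cons, List.prod_cons] at ih ⊢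
    rw [evS_mergeS, ih, mul_assoc]
  | case2 l h =>
    rw [pairUp]
    exact h

lemma evS_flatten (l : List (List (ℕ × ℤ))) : evS V l.flatten = evL V l := by
  induction l with
  | nil => rfl
  | cons a l ih =>
    simp only [List.flatten_cons, evS_append, ih, evL, List.map_cons, List.prod_cons]

lemma evS_mergeAll (f : ℕ) (l : List (List (ℕ × ℤ))) : evS V (mergeAll f l) = evL V l := by
  induction f generalizing l with
  | zero =>
    match l with
    | [] => rfl
    | [a] => simp [mergeAll, evL]
    | a :: b :: l => simp only [mergeAll]; exact evS_flatten V _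
  | succ f ih =>
    match l with
    | [] => rfl
    | [a] => simp [mergeAll, evL]
    | a :: b :: l =>
      simp only [mergeAll]
      rw [ih, evL_pairUp]

lemma evS_normF (s : List (ℕ × ℤ)) : evS V (normF s) = evS V s := by
  rw [normF, evS_mergeAll]
  induction s with
  | nil => rfl
  | cons a s ih =>
    simp only [List.map_cons, evL, List.prod_cons, evS_cons, evS_nil, mul_one] at ih ⊢
    rw [ih]

end SV

/-! ### The relations -/

/-- The relation from two ways of rewriting a word. -/
def ovVecF (S : Sys) (f : ℕ) (w : List ℕ) (a b : ℕ) : Option (List (ℕ × ℤ)) :=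
  match stepAt S a w, stepAt S b w with
  | some q1, some q2 =>
    let r1 := colZ S f q1.1
    let r2 := colZ S f q2.1
    if r1.1 = r2.1 then some (normF (signed 1 (q1.2 :: r1.2) ++ signed (-1) (q2.2 :: r2.2))) else none
  | _, _ => none

/-- The relation from conjugating a relation among letters. -/
def fusVecF (S : Sys) (f : ℕ) (a b : ℕ → List ℕ) (off : ℕ) (lhs rhs : List ℕ) : Option (List (ℕ × ℤ)) :=
  let r1 := colZ S f (expand a lhs)
  let r2 := colZ S f (expand a rhs)
  let r3 := colZ S f (expand b lhs)
  let r4 := colZ S f (expand b rhs)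
  if r1.1 = r2.1 ∧ r3.1 = r4.1 ∧ (∀ l ∈ lhs, l < 1000) ∧ (∀ l ∈ rhs, l < 1000) then
    some (normF (signed 1 r3.2 ++ signed (-1) r4.2 ++ signed (-1) r1.2 ++ signed 1 r2.2 ++
      signed 1 (lhs.map (off + ·)) ++ signed (-1) (rhs.map (off + ·))))
  else none

section RelSpec

variable {Γ : Type*} [Group Γ] {A : Type*} [CommGroup A] {ι : A →* Γ}
variable {S : Sys} {g : ℕ → Γ} {V : ℕ → A}

lemma ovVecF_spec (hι : ∀ a x, ι a * x = x * ι a) (hinj : Function.Injective ι) (H : Holds ι S g V)
    {f : ℕ} {w : List ℕ} {a b : ℕ} {v : List (ℕ × ℤ)} (h : ovVecF S f w a b = some v) : evS V v = 1 := by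
  unfold ovVecF at h
  cases h1 : stepAt S a w with
  | none => simp [h1] at h
  | some q1 =>
    cases h2 : stepAt S b w with
    | none => simp [h1, h2] at h
    | some q2 =>
      simp only [h1, h2] at h
      split_ifs at h with h3
      simp only [Option.some.injEq] at h
      subst h
      rw [evS_normF, evS_append]
      have e1 := stepAt_spec hι H a (w' := q1.1) (k := q1.2) (by rw [h1])
      have e2 := stepAt_spec hι H b (w' := q2.1) (k := q2.2) (by rw [h2])
      have e3 := colZ_spec hι H f q1.1
      have e4 := colZ_spec hι H f q2.1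
      rw [e3] at e1
      rw [e4, ← h3, e1] at e2
      simp only [mul_assoc] at e2
      rw [mul_right_inj, ← map_mul, ← map_mul] at e2
      have e5 := hinj e2
      have : evS V (signed 1 (q1.2 :: (colZ S f q1.1).2)) = V q1.2 * tprod V (colZ S f q1.1).2 := by
        rw [evS_signed_one, tprod_cons]
      rw [this, evS_signed_neg, tprod_cons, mul_comm (V q1.2), e5]
      have e6 : tprod V (colZ S f q2.1).2 * V q2.2 * (V q2.2 * tprod V (colZ S f q2.1).2)⁻¹ = 1 := by
        rw [mul_comm (V q2.2)]
        exact mul_inv_cancel _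
      exact e6

lemma fusVecF_spec (hι : ∀ a x, ι a * x = x * ι a) (hinj : Function.Injective ι) (H : Holds ι S g V)
    {f : ℕ} {a b : ℕ → List ℕ} {off : ℕ} {x : Γ}
    (hc : ∀ l, l < 1000 → x⁻¹ * wEval g (a l) * x = wEval g (b l) * ι (V (off + l)))
    {lhs rhs : List ℕ} {v : List (ℕ × ℤ)} (h : fusVecF S f a b off lhs rhs = some v) : evS V v = 1 := by
  unfold fusVecF at h
  simp only at h
  split_ifs at h with h0
  simp only [Option.some.injEq] at h
  subst h
  obtain ⟨h12, h34, hl, hr⟩ := h0
  set r1 := colZ S f (expand a lhs) with hr1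
  set r2 := colZ S f (expand a rhs) with hr2
  set r3 := colZ S f (expand b lhs) with hr3
  set r4 := colZ S f (expand b rhs) with hr4
  have e1 : wEval g (expand a lhs) = wEval g r1.1 * ι (tprod V r1.2) := colZ_spec hι H f _
  have e2 : wEval g (expand a rhs) = wEval g r1.1 * ι (tprod V r2.2) := by
    rw [h12]; exact colZ_spec hι H f _
  have e3 : wEval g (expand b lhs) = wEval g r3.1 * ι (tprod V r3.2) := colZ_spec hι H f _
  have e4 : wEval g (expand b rhs) = wEval g r3.1 * ι (tprod V r4.2) := by
    rw [h34]; exact colZ_spec hι H f _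
  have c1 := conj_expand hι hc lhs hl
  have c2 := conj_expand hι hc rhs hr
  have e5 : wEval g (expand a lhs) = wEval g (expand a rhs) * ι ((tprod V r2.2)⁻¹ * tprod V r1.2) := by
    rw [e1, e2, map_mul, map_inv]
    group
  have c3 : x⁻¹ * wEval g (expand a lhs) * x =
      (x⁻¹ * wEval g (expand a rhs) * x) * ι ((tprod V r2.2)⁻¹ * tprod V r1.2) := by
    rw [e5]
    have := hι ((tprod V r2.2)⁻¹ * tprod V r1.2) x
    simp only [mul_assoc]
    rw [this]
  rw [c1, c2, e3, e4] at c3
  simp only [mul_assoc] at c3
  rw [mul_right_inj, ← map_mul, ← map_mul, ← map_mul] at c3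
  have c4 := hinj c3
  rw [evS_normF]
  simp only [evS_append, evS_signed_one, evS_signed_neg]
  have c5 : tprod V r3.2 * tprod V (lhs.map (off + ·)) =
      tprod V r4.2 * (tprod V (rhs.map (off + ·)) * ((tprod V r2.2)⁻¹ * tprod V r1.2)) := c4
  calc tprod V r3.2 * (tprod V r4.2)⁻¹ * (tprod V r1.2)⁻¹ * tprod V r2.2 * tprod V (lhs.map (off + ·)) *
        (tprod V (rhs.map (off + ·)))⁻¹
      = (tprod V r3.2 * tprod V (lhs.map (off + ·))) * ((tprod V r4.2)⁻¹ * (tprod V r1.2)⁻¹ * tprod V r2.2 *
          (tprod V (rhs.map (off + ·)))⁻¹) := by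
        simp only [mul_assoc, mul_left_comm, mul_comm]
    _ = 1 := by
        rw [c5]
        have e7 : ∀ a b c d : A, a * (b * (c⁻¹ * d)) * (a⁻¹ * d⁻¹ * c * b⁻¹) = 1 := by
          intro a b c d
          calc a * (b * (c⁻¹ * d)) * (a⁻¹ * d⁻¹ * c * b⁻¹) = (a * a⁻¹) * (b * b⁻¹) * (c⁻¹ * c) * (d * d⁻¹) := by
                simp only [mul_assoc, mul_left_comm, mul_comm]
            _ = 1 := by simp
        exact e7 _ _ _ _

end RelSpec

/-! ### The check -/

/-- A combination of relations, merged. -/
def comboF (rels : List (List (ℕ × ℤ))) (q : List (ℕ × ℤ)) : List (ℕ × ℤ) :=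
  q.foldr (fun t acc => mergeS (scaleS t.2 (rels.getD t.1 [])) acc) []

variable (c : Cert)

/-- One row of the overlaps. -/
def ovOK (q : List ℕ × ℕ × ℕ × List (ℕ × ℤ)) : Bool :=
  decide (ovVecF c.sys c.fuel q.1 q.2.1 q.2.2.1 = some q.2.2.2)

/-- One row of the fusion relations. -/
def frOK (q : ℕ × List ℕ × List ℕ × List (ℕ × ℤ)) : Bool :=
  decide (fusVecF c.sys c.fuel (c.lett q.1) (c.letb q.1) (Cert.foff q.1) q.2.1 q.2.2.1 = some q.2.2.2)

/-- One target; the bits of `M` are the tails known to vanish. -/
def tgOK (M : ℕ) (t : ℕ × ℤ × List (ℕ × ℤ)) : Bool :=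
  decide ((comboF c.allRels t.2.2).filter (fun q => !(Nat.testBit M q.1)) =
    normS [(t.1, (1 : ℤ)), (c.k0, t.2.1)])

/-- The targets. -/
def runT : ℕ → List (ℕ × ℤ × List (ℕ × ℤ)) → Bool
  | _, [] => true
  | M, t :: rest => tgOK c M t && runT (if t.2.1 = 0 then M ||| (1 <<< t.1) else M) rest

/-- The order of the group is reached. -/
def zOK : Bool := decide (comboF c.allRels c.zcomb = normS [(c.k0, (c.zm : ℤ))])

/-- All tails are among the targets. -/
def coverOK : Bool :=
  (List.range c.n).all fun j =>
    (decide (j < c.r) || decide (tidx j j ∈ c.targets.map (·.1))) &&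
    (List.range j).all fun i => decide (tidx j i ∈ c.targets.map (·.1))

/-- The whole check. -/
def checkF : Bool :=
  c.chkTable && c.chkDefs && c.ovs.all (ovOK c) && c.frs.all (frOK c) && runT c 0 c.targets &&
    zOK c && coverOK c

variable {c}

theorem all_cons {α : Type} {f : α → Bool} {a : α} {l : List α} (h : f a = true)
    (hl : l.all f = true) : (a :: l).all f = true := by
  simp only [List.all_cons, Bool.and_eq_true]
  exact ⟨h, hl⟩

theorem all_nil {α : Type} {f : α → Bool} : ([] : List α).all f = true := rfl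

theorem run_cons {M M' : ℕ} {t : ℕ × ℤ × List (ℕ × ℤ)} {rest : List (ℕ × ℤ × List (ℕ × ℤ))}
    (h : tgOK c M t = true) (hz : t.2.1 = 0) (hM : M' = M ||| (1 <<< t.1)) (h2 : runT c M' rest = true) :
    runT c M (t :: rest) = true := by
  subst hM
  have h3 : (if t.2.1 = 0 then M ||| (1 <<< t.1) else M) = M ||| (1 <<< t.1) := if_pos hz
  simp only [runT, Bool.and_eq_true]
  rw [h3]
  exact ⟨h, h2⟩

theorem run_nil {M : ℕ} : runT c M [] = true := rfl

theorem check_of (h1 : c.chkTable = true) (h2 : c.chkDefs = true) (h3 : c.ovs.all (ovOK c) = true)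
    (h4 : c.frs.all (frOK c) = true) (h5 : runT c 0 c.targets = true) (h6 : zOK c = true)
    (h7 : coverOK c = true) : checkF c = true := by
  simp only [checkF, Bool.and_eq_true]
  exact ⟨⟨⟨⟨⟨⟨h1, h2⟩, h3⟩, h4⟩, h5⟩, h6⟩, h7⟩

section Main

variable {Γ G : Type*} [Group Γ] [Group G]

/-- All relations evaluate to `1`; combinations too. -/
lemma evS_comboF {A : Type*} [CommGroup A] (rels : List (List (ℕ × ℤ))) (V : ℕ → A)
    (h : ∀ v ∈ rels, evS V v = 1) (q : List (ℕ × ℤ)) : evS V (comboF rels q) = 1 := by
  have h1 : ∀ t : ℕ × ℤ, evS V (scaleS t.2 (rels.getD t.1 [])) = 1 := by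
    intro t
    rw [evS_scaleS]
    by_cases ht : t.1 < rels.length
    · rw [List.getD_eq_getElem _ _ ht, h _ (List.getElem_mem ht), one_zpow]
    · rw [List.getD_eq_default _ _ (by omega)]
      simp
  unfold comboF
  induction q with
  | nil => rfl
  | cons t q ih =>
    rw [List.foldr_cons, evS_mergeS, h1, ih, one_mul]

lemma evS_filterM {A : Type*} [CommGroup A] (V : ℕ → A) (M : ℕ) (hS : ∀ s, Nat.testBit M s = true → V s = 1)
    (l : List (ℕ × ℤ)) : evS V (l.filter fun q => !(Nat.testBit M q.1)) = evS V l := by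
  induction l with
  | nil => rfl
  | cons a l ih =>
    by_cases h : Nat.testBit M a.1 = true
    · rw [List.filter_cons_of_neg (by simpa using h), ih, evS_cons, hS _ h, one_zpow, one_mul]
    · rw [List.filter_cons_of_pos (by simpa using h), evS_cons, evS_cons, ih]

lemma runT_spec {A : Type*} [CommGroup A] (c : Cert) (V : ℕ → A)
    (hcomb : ∀ q, evS V (comboF c.allRels q) = 1) {M : ℕ} {l : List (ℕ × ℤ × List (ℕ × ℤ))}
    (h : runT c M l = true) (hS : ∀ s, Nat.testBit M s = true → V s = 1) :
    ∀ t ∈ l, V t.1 * V c.k0 ^ t.2.1 = 1 := by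
  induction l generalizing M with
  | nil => intro t ht; simp at ht
  | cons a l ih =>
    simp only [runT, tgOK, Bool.and_eq_true, decide_eq_true_eq] at h
    obtain ⟨h1, h2⟩ := h
    have h3 : V a.1 * V c.k0 ^ a.2.1 = 1 := by
      have h4 := evS_filterM V M hS (comboF c.allRels a.2.2)
      rw [h1, hcomb, evS_normS] at h4
      simpa using h4
    intro t ht
    rcases List.mem_cons.1 ht with rfl | ht
    · exact h3
    · refine ih h2 ?_ t ht
      intro s hs
      split_ifs at hs with h5
      · rw [Nat.testBit_or, Bool.or_eq_true] at hs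
        rcases hs with hs | hs
        · exact hS s hs
        · rw [Nat.one_shiftLeft, Nat.testBit_two_pow] at hs
          have hs' : a.1 = s := by simpa using hs
          subst hs'
          rw [h5, zpow_zero, mul_one] at h3
          exact h3
      · exact hS s hs

/-- The tails lie in the cyclic group of one element. -/
theorem exists_liftsF (c : Cert) (hc : checkF c = true) (σ : Γ →* G) (hs : Function.Surjective σ)
    (hcen : σ.ker ≤ center Γ) (e y : ℕ → G)
    (he1 : ∀ j i, i < j → j < c.n → e j * e i = wEval e (i :: c.rule j i))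
    (he2 : ∀ i, i < c.n → e i ^ c.p = wEval e (c.rule i i))
    (hf : ∀ f l, (y f)⁻¹ * wEval e (c.lett f l) * y f = wEval e (c.letb f l)) :
    ∃ (g : ℕ → Γ) (z : Γ), (∀ l, σ (g l) = e l) ∧ z ∈ σ.ker ∧ z ^ c.zm = 1 ∧
      (∀ j i, i < j → j < c.n → ∃ t ∈ zpowers z, g j * g i = wEval g (i :: c.rule j i) * t) ∧
      (∀ i, c.r ≤ i → i < c.n → ∃ t ∈ zpowers z, g i ^ c.p = wEval g (c.rule i i) * t) := by
  simp only [checkF, Bool.and_eq_true] at hc
  obtain ⟨⟨⟨⟨⟨⟨hT, hD⟩, hO⟩, hFr⟩, hT1⟩, hT2⟩, hT3⟩ := hc
  obtain ⟨hp1, hn, hr, hru1, hru2⟩ := table_facts hT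
  obtain ⟨hd1, hd2⟩ := defs_facts hD
  let h0 : ℕ → Γ := fun l => Function.surjInv hs (e l)
  let x : ℕ → Γ := fun f => Function.surjInv hs (y f)
  have h00 : ∀ l, σ (h0 l) = e l := fun l => Function.surjInv_eq hs _
  have hx : ∀ f, σ (x f) = y f := fun f => Function.surjInv_eq hs _
  let g : ℕ → Γ := liftF c h0 c.n
  have hg : ∀ l, σ (g l) = e l := fun l => liftF_map c hD σ e h0 h00 he1 he2 _ _
  have hmem := tailV_mem_ker c σ e y g x hg hx he1 he2 hf
  let _ : CommGroup (center Γ) := centerCommGroup Γ
  let V : ℕ → center Γ := fun k => ⟨tailV c g x k, hcen (hmem k)⟩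
  let ι : center Γ →* Γ := (center Γ).subtype
  have hιV : ∀ k, ι (V k) = tailV c g x k := fun k => rfl
  have hι : ∀ a b, ι a * b = b * ι a := by
    intro a b
    exact (mem_center_iff.1 a.2 b).symm
  have hinj : Function.Injective ι := Subtype.val_injective
  have H : Holds ι c.sys g V := by
    refine ⟨?_, ?_⟩
    · intro j i hij hj
      rw [hιV, tailV_comm c hn g x hij hj]
      show _ = wEval g (i :: c.rule j i) * _
      group
    · intro i hi
      rw [hιV, tailV_pow c hn g x hi]
      show g i ^ c.p = wEval g (c.rule i i) * _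
      group
  -- the relations
  have hrels : ∀ v ∈ c.allRels, evS V v = 1 := by
    intro v hv
    simp only [Cert.allRels, List.mem_append, List.mem_map] at hv
    rcases hv with (⟨q, hq, rfl⟩ | ⟨q, hq, rfl⟩) | ⟨q, hq, rfl⟩
    · -- definitions
      obtain ⟨t, ht, rfl⟩ := List.getElem_of_mem hq
      have hqe : c.defs[t] = c.defs.getD t (0, 0) := by
        rw [List.getD_eq_getElem _ _ ht]
      rw [hqe]
      obtain ⟨h3, h4, h5⟩ := hd2 t ht
      have hl : c.r + t < c.n := by omega
      have hgl : g (c.r + t) = newval c (liftF c h0 (c.r + t)) (c.r + t) := by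
        show liftF c h0 c.n (c.r + t) = _
        rw [liftF_stable c h0 (Nat.lt_succ_self _) (show c.r + t + 1 ≤ c.n by omega), liftF_succ_self]
      have hst : ∀ l, l < c.r + t → liftF c h0 (c.r + t) l = g l := by
        intro l hl'
        exact (liftF_stable c h0 hl' (by omega)).symm
      have ht1 : tailV c g x (tidx (c.defs.getD t (0, 0)).1 (c.defs.getD t (0, 0)).2) = 1 := by
        have hn1 : newval c (liftF c h0 (c.r + t)) (c.r + t) =
            if (c.defs.getD t (0, 0)).2 < (c.defs.getD t (0, 0)).1 then
              (g (c.defs.getD t (0, 0)).2 * g (c.defs.getD t (0, 0)).1)⁻¹ *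
                (g (c.defs.getD t (0, 0)).1 * g (c.defs.getD t (0, 0)).2)
            else g (c.defs.getD t (0, 0)).1 ^ c.p := by
          unfold newval
          rw [if_pos ⟨by omega, hl⟩]
          simp only [Nat.add_sub_cancel_left, hst _ h3, hst _ h4]
        rw [hn1] at hgl
        rcases h5 with ⟨h6, h7⟩ | ⟨h6, h7⟩
        · rw [if_pos h6] at hgl
          rw [tailV_comm c hn g x h6 (by omega), h7]
          simp only [wEval_cons, wEval_nil, mul_one]
          rw [hgl]
          group
        · rw [if_neg (by omega)] at hgl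
          rw [h6, tailV_pow c hn g x (by omega), h7]
          simp only [wEval_cons, wEval_nil, mul_one]
          rw [hgl, inv_mul_cancel]
      have hV1 : V (tidx (c.defs.getD t (0, 0)).1 (c.defs.getD t (0, 0)).2) = 1 := Subtype.ext ht1
      simp only [evS_cons, evS_nil, mul_one, zpow_one]
      exact hV1
    · -- overlaps
      have h1 : ∀ q ∈ c.ovs, ovVecF c.sys c.fuel q.1 q.2.1 q.2.2.1 = some q.2.2.2 := by
        simpa [ovOK] using hO
      exact ovVecF_spec hι hinj H (h1 q hq)
    · -- fusion
      have h1 : ∀ q ∈ c.frs, fusVecF c.sys c.fuel (c.lett q.1) (c.letb q.1) (Cert.foff q.1) q.2.1 q.2.2.1 =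
          some q.2.2.2 := by
        simpa [frOK] using hFr
      refine fusVecF_spec hι hinj H (x := x q.1) ?_ (h1 q hq)
      intro l hl
      rw [hιV, tailV_fus c g x q.1 hl]
      group
  have hcomb := evS_comboF c.allRels V hrels
  -- the targets
  simp only [coverOK, zOK, List.all_eq_true, decide_eq_true_eq, Bool.and_eq_true, Bool.or_eq_true,
    List.mem_range] at hT2 hT3
  have hT1' := runT_spec c V hcomb hT1 (fun s hs => by simp at hs)
  have hz : ∀ k ∈ c.targets.map (·.1), ι (V k) ∈ zpowers (ι (V c.k0)) := by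
    intro k hk
    obtain ⟨t, ht, rfl⟩ := List.mem_map.1 hk
    have h1 := hT1' t ht
    have h2 : V t.1 = (V c.k0 ^ t.2.1)⁻¹ := eq_inv_of_mul_eq_one_left h1
    rw [h2, map_inv, map_zpow]
    exact Subgroup.inv_mem _ (Subgroup.zpow_mem _ (mem_zpowers _) _)
  refine ⟨g, ι (V c.k0), hg, hmem _, ?_, ?_, ?_⟩
  · have h1 := hcomb c.zcomb
    rw [hT2, evS_normS] at h1
    simp only [evS_cons, evS_nil, mul_one] at h1
    rw [zpow_natCast] at h1
    rw [← map_pow, h1, map_one]
  · intro j i hij hj
    refine ⟨ι (V (tidx j i)), hz _ ((hT3 j hj).2 i hij), H.comm j i hij hj⟩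
  · intro i hi1 hi2
    refine ⟨ι (V (tidx i i)), hz _ ?_, H.pow i hi2⟩
    rcases (hT3 i hi2).1 with h | h
    · omega
    · exact h

end Main

section Final

variable {Γ : Type*} {G : Type*} [Group Γ] [Group G]

/-- The final form of the theorem: a bound at one prime. -/
theorem card_ker_sylow_dvdF (c : Cert) (hc : checkF c = true) {p : ℕ} [Fact p.Prime] (hpc : c.p = p)
    [Finite Γ] {σ : Γ →* G} (hσ : Cfsg.IsStemExtension σ) (e y : ℕ → G)
    (he1 : ∀ j i, i < j → j < c.n → e j * e i = wEval e (i :: c.rule j i))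
    (he2 : ∀ i, i < c.n → e i ^ c.p = wEval e (c.rule i i))
    (hf : ∀ f l, (y f)⁻¹ * wEval e (c.lett f l) * y f = wEval e (c.letb f l))
    (hcard : c.p ^ c.n ≤ Nat.card (chain e c.n ⊥ 0))
    {m : ℕ} (hG : Nat.card G = c.p ^ c.n * m) (hm : ¬ p ∣ m) (P : Sylow p Γ) :
    Nat.card (σ.subgroupMap (P : Subgroup Γ)).ker ∣ c.zm := by
  have hpp : p.Prime := Fact.out
  have : Finite G := Finite.of_surjective σ hσ.1
  have hc' := hc
  simp only [checkF, Bool.and_eq_true] at hc'
  obtain ⟨⟨⟨⟨⟨⟨hT, -⟩, -⟩, -⟩, -⟩, -⟩, -⟩ := hc'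
  obtain ⟨hp1, hn, hr, hru1, hru2⟩ := table_facts hT
  obtain ⟨g, z, hg, hz, hzm, hg1, hg2⟩ := exists_liftsF c hc σ hσ.1 hσ.2.1 e y he1 he2 hf
  have hmain := fun (w : Γ) => mem_zpowers_of_pc (w := w) (by omega : 0 < c.p) hr c.rule hru1 hru2 σ hσ.1 hσ.2.1 e g hg
    he1 he2 hz hg1 hg2 hcard
  -- the index
  set S := chain e c.n ⊥ 0 with hS
  have hcS : Nat.card S ≤ c.p ^ c.n := by
    have h1 := card_chain_le e c.n ⊥ (a := 0) (p := c.p) (by omega) (fun l _ _ k hk => ?_)
      (fun l i _ hli hi => ?_) (fun l _ hln => ?_) c.n (Nat.zero_le _) le_rfl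
    · rw [chain_eq_of_ge e c.n ⊥ le_rfl] at h1
      simpa using h1
    · rw [Subgroup.mem_bot] at hk
      subst hk
      simp
    · have h3 := he1 i l hli hi
      have h4 : (e l)⁻¹ * e i * e l = wEval e (c.rule i l) := by
        rw [mul_assoc, h3, wEval_cons, inv_mul_cancel_left]
      rw [h4]
      obtain ⟨rest, h5, h6⟩ := hru2 i l hli hi
      rw [h5]
      refine wEval_mem_chain e c.n ⊥ ?_
      intro x hx
      rcases List.mem_cons.1 hx with rfl | hx
      · exact ⟨by omega, hi⟩
      · have := h6 x hx
        omega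
    · rw [he2 l hln]
      refine wEval_mem_chain e c.n ⊥ ?_
      intro x hx
      have := hru1 l hln x hx
      omega
  have hcS2 : Nat.card S = c.p ^ c.n := le_antisymm hcS hcard
  have hidx : (comap σ S).index = m := by
    rw [Subgroup.index_comap_of_surjective S hσ.1]
    have h1 := Subgroup.card_mul_index S
    rw [hcS2, hG] at h1
    exact Nat.eq_of_mul_eq_mul_left (pow_pos (by omega) _) h1
  -- every element of the kernel of `P` lies in `zpowers z`
  have hk : ∀ a : (σ.subgroupMap (P : Subgroup Γ)).ker, ((a : P) : Γ) ∈ zpowers z := by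
    intro a
    have ha : ((a : P) : Γ) ∈ σ.ker := Cfsg.Agent.Lib.Schur.Stem.mem_ker_subgroupMap.1 a.2
    obtain ⟨k, hk⟩ := P.2 (a : P)
    have hk' : ((a : P) : Γ) ^ p ^ k = 1 := by
      have := congrArg Subtype.val hk
      simpa using this
    have hcop : Nat.Coprime (orderOf ((a : P) : Γ)) (comap σ S).index := by
      rw [hidx]
      have h1 : orderOf ((a : P) : Γ) ∣ p ^ k := orderOf_dvd_of_pow_eq_one hk'
      refine Nat.Coprime.coprime_dvd_left h1 ?_
      exact Nat.Coprime.pow_left _ ((Nat.Prime.coprime_iff_not_dvd hpp).2 hm)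
    exact hmain _ ha (Cfsg.Agent.Lib.Schur.Stem.mem_commutator_of_coprime _ (hσ.2.1 ha) (hσ.2.2 ha) hcop)
  -- conclude
  let φ : (σ.subgroupMap (P : Subgroup Γ)).ker →* zpowers z :=
    { toFun := fun a => ⟨((a : P) : Γ), hk a⟩
      map_one' := rfl
      map_mul' := fun _ _ => rfl }
  have hφ : Function.Injective φ := by
    intro a b hab
    have h1 : ((a : P) : Γ) = ((b : P) : Γ) := congrArg (fun q : zpowers z => (q : Γ)) hab
    exact Subtype.ext (Subtype.ext h1)
  have h1 := Subgroup.card_dvd_of_injective φ hφ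
  rw [Nat.card_zpowers] at h1
  exact h1.trans (orderOf_dvd_of_pow_eq_one hzm)

end Final

end Cfsg.Agent.Lib.ConwayP.PcFast
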