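import Cfsg.Agent.Lib.ConwayP.Co2p2D
import Cfsg.Agent.Lib.ConwayP.PcFast

set_option autoImplicit false
set_option maxRecDepth 100000
set_option maxHeartbeats 0

namespace Cfsg.Agent.Lib.ConwayP.Co2p2

open Cfsg.Agent.Lib.Schur.PcMain Cfsg.Agent.Lib.ConwayP.PcFast

theorem frr_0 : frOK C fr_0 = true := by decide +kernel

theorem frr_1 : frOK C fr_1 = true := by decide +kernel

theorem frr_2 : frOK C fr_2 = true := by decide +kernel

theorem frr_3 : frOK C fr_3 = true := by decide +kernel

theorem frr_4 : frOK C fr_4 = true := by decide +kernel

theorem frr_5 : frOK C fr_5 = true := by decide +kernel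

theorem frr_6 : frOK C fr_6 = true := by decide +kernel

theorem frr_7 : frOK C fr_7 = true := by decide +kernel

theorem frr_8 : frOK C fr_8 = true := by decide +kernel

theorem frr_9 : frOK C fr_9 = true := by decide +kernel

theorem frr_10 : frOK C fr_10 = true := by decide +kernel

theorem frr_11 : frOK C fr_11 = true := by decide +kernel

theorem frr_12 : frOK C fr_12 = true := by decide +kernel

theorem frr_13 : frOK C fr_13 = true := by decide +kernel

theorem frr_14 : frOK C fr_14 = true := by decide +kernel

theorem frr_15 : frOK C fr_15 = true := by decide +kernel

theorem frr_16 : frOK C fr_16 = true := by decide +kernel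

theorem frr_17 : frOK C fr_17 = true := by decide +kernel

theorem frr_18 : frOK C fr_18 = true := by decide +kernel

theorem frr_19 : frOK C fr_19 = true := by decide +kernel

theorem frr_20 : frOK C fr_20 = true := by decide +kernel

theorem frr_21 : frOK C fr_21 = true := by decide +kernel

theorem frr_22 : frOK C fr_22 = true := by decide +kernel

theorem frr_23 : frOK C fr_23 = true := by decide +kernel

theorem frr_24 : frOK C fr_24 = true := by decide +kernel

theorem frr_25 : frOK C fr_25 = true := by decide +kernel

theorem frr_26 : frOK C fr_26 = true := by decide +kernel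

theorem frr_27 : frOK C fr_27 = true := by decide +kernel

theorem frr_28 : frOK C fr_28 = true := by decide +kernel

theorem frr_29 : frOK C fr_29 = true := by decide +kernel

theorem frr_30 : frOK C fr_30 = true := by decide +kernel

theorem frr_31 : frOK C fr_31 = true := by decide +kernel

theorem frr_32 : frOK C fr_32 = true := by decide +kernel

theorem frr_33 : frOK C fr_33 = true := by decide +kernel

theorem frr_34 : frOK C fr_34 = true := by decide +kernel

theorem frr_35 : frOK C fr_35 = true := by decide +kernel

theorem frr_36 : frOK C fr_36 = true := by decide +kernel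

theorem frr_37 : frOK C fr_37 = true := by decide +kernel

theorem frr_38 : frOK C fr_38 = true := by decide +kernel

theorem frr_39 : frOK C fr_39 = true := by decide +kernel

theorem frr_40 : frOK C fr_40 = true := by decide +kernel

theorem frr_41 : frOK C fr_41 = true := by decide +kernel

theorem frr_42 : frOK C fr_42 = true := by decide +kernel

theorem frr_43 : frOK C fr_43 = true := by decide +kernel

theorem frr_44 : frOK C fr_44 = true := by decide +kernel

theorem frr_45 : frOK C fr_45 = true := by decide +kernel

theorem frr_46 : frOK C fr_46 = true := by decide +kernel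

theorem frr_47 : frOK C fr_47 = true := by decide +kernel

theorem frr_48 : frOK C fr_48 = true := by decide +kernel

theorem frr_49 : frOK C fr_49 = true := by decide +kernel

theorem frr_50 : frOK C fr_50 = true := by decide +kernel

theorem frr_51 : frOK C fr_51 = true := by decide +kernel


end Cfsg.Agent.Lib.ConwayP.Co2p2
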