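import Cfsg.Agent.Lib.ConwayP.Co2p2S
import Cfsg.Agent.Lib.ConwayP.PcFast

set_option autoImplicit false
set_option maxRecDepth 100000
set_option maxHeartbeats 0

namespace Cfsg.Agent.Lib.ConwayP.Co2p2

open Cfsg.Agent.Lib.Schur.PcMain Cfsg.Agent.Lib.ConwayP.PcFast

theorem zok : zOK C = true := by decide +kernel

theorem cov : coverOK C = true := by decide +kernel

end Cfsg.Agent.Lib.ConwayP.Co2p2
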