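import Cfsg.Agent.Lib.ConwayP.Co3Data

/-!
# The group `Co₃` as a permutation group on 276 points
-/

set_option autoImplicit false
set_option maxRecDepth 100000
set_option maxHeartbeats 0

namespace Cfsg.Agent.Lib.ConwayP.Co3Main

open Cfsg Cfsg.Agent.Lib.PermComp Cfsg.Agent.Lib.Leech.Vec Cfsg.Agent.Lib.ConwayP.Bridge
open Cfsg.Agent.Lib.Schur.Slp2 Cfsg.Agent.Lib.ConwayP.Co3Data

theorem T_eq : co3_T = TW.map Prod.fst := by decide +kernel

theorem pairs_ok : pairsOK co3_n nV As Bs = true := by decide +kernel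

theorem gens_ok : ∀ q ∈ TW, genOK co3_n co3_w co3_mask nV As Bs q.1 q.2 = true := by decide +kernel

theorem chain_ok :
    LiteChain.checkLiteAll co3_n co3_w co3_mask co3_L co3_maskL co3_idc co3_T co3_prog co3_levels = true := by
  decide +kernel

theorem order_ok : Core.orderC co3_levels = 495766656000 := by decide +kernel

theorem valid_ok : Core.allL (Simple.validB co3_n co3_w co3_mask co3_idc) co3_T = true := by
  decide +kernel

theorem hid0 : (List.range co3_n).all (fun i => Nat.beq (Core.app co3_w co3_mask co3_idc i) i) = true := by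
  decide +kernel

theorem hid : ∀ i < co3_n, Core.app co3_w co3_mask co3_idc i = i := fun i hi =>
  Nat.eq_of_beq_eq_true (List.all_eq_true.1 hid0 i (List.mem_range.2 hi))

theorem hm : co3_mask = 2 ^ co3_w - 1 := by decide +kernel

theorem slp_ok : slp2 co3_n co3_w co3_mask co3_idc S prog0 co3_T.reverse co3_T.length = true := by
  decide +kernel

theorem hu : ((Cfsg.Spor.leechV : Cfsg.leechLattice) : Cfsg.GolayPt → ℤ) = dec nV := by
  have h : ∀ p : Cfsg.GolayPt, Cfsg.Spor.vecV p = dec nV p := by decide +kernel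
  exact funext h

theorem sq_V : sqNorm ((Cfsg.Spor.leechV : Cfsg.leechLattice) : Cfsg.GolayPt → ℤ) = 48 := by
  show sqNorm Cfsg.Spor.vecV = 48
  decide +kernel

/-- The permutation group. -/
abbrev Ag : Subgroup (Equiv.Perm (Fin co3_n)) := Core.H co3_w co3_mask (Equiv.refl (Fin co3_n)) co3_T

theorem hT : ∀ c ∈ co3_T, ∃ g, Core.Rep co3_w co3_mask (Equiv.refl (Fin co3_n)) c g := fun c hc =>
  Simple.exists_rep_of_valid hm hid ((Core.allL_eq_true _ _).1 valid_ok c hc)

theorem card_stab : Nat.card (MulAction.stabilizer Co0 Cfsg.Spor.leechV) = 495766656000 :=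
  Cfsg.Agent.Lib.Leech.Order.card_stab48 sq_V

instance finKK : Finite (KK Cfsg.Spor.leechV) := Nat.finite_of_card_ne_zero (by
  rw [card_KK, card_stab]
  norm_num)

theorem card_Ag : Nat.card Ag = 495766656000 := by
  have h1 := card_H_le (w := co3_w) (mask := co3_mask) hu pairs_ok TW gens_ok
  rw [← T_eq, card_stab] at h1
  have h2 := LiteChain.main_of_lite hT chain_ok (by rw [order_ok]; exact h1)
  rw [h2.2.2.2.2.2, order_ok]

theorem nonempty_equiv : Nonempty (Cfsg.Spor.Co3 ≃* Ag) := by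
  have h := equiv_of_cert (w := co3_w) (mask := co3_mask) hu pairs_ok TW gens_ok (by
    rw [← T_eq, card_stab]
    exact card_Ag)
  rw [← T_eq] at h
  exact h

theorem T_mem : ∀ c ∈ co3_T, ∃ g ∈ Ag, Core.Rep co3_w co3_mask (Equiv.refl (Fin co3_n)) c g := by
  intro c hc
  obtain ⟨g, hg⟩ := hT c hc
  exact ⟨g, Core.H_of_rep hc hg, hg⟩

theorem S_mem : ∀ c ∈ S, ∃ g ∈ Ag, Core.Rep co3_w co3_mask (Equiv.refl (Fin co3_n)) c g :=
  slp2_sound hm hid Ag S prog0 co3_T.reverse co3_T.length (by simp)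
    (fun c hc => T_mem c (by simpa using hc)) slp_ok

end Cfsg.Agent.Lib.ConwayP.Co3Main
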