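import Cfsg.Agent.Lib.ConwayP.Bridge
import Cfsg.Agent.Lib.Leech.Cert
import Cfsg.Agent.Lib.Leech.ZBasis
import Cfsg.Agent.Lib.Schur.PcPerm

/-!
# Tail certificates inside the lattice

The letters of a `p`-subgroup and the conjugating elements of a tail certificate are words in the
signed permutations and `ξ`, all fixing a lattice vector `u`.  Identities of words are checked on a
spanning list of lattice vectors (no permutation action on thousands of points is needed), and
the order of the `p`-subgroup is bounded below by orbits on a few lattice vectors.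
-/

set_option autoImplicit false

namespace Cfsg.Agent.Lib.ConwayP.LatPc

open Cfsg Subgroup
open Cfsg.Agent.Lib.Golay.Core Cfsg.Agent.Lib.Golay.Perm Cfsg.Agent.Lib.Leech.Lat
  Cfsg.Agent.Lib.Leech.Vec Cfsg.Agent.Lib.Leech.Word Cfsg.Agent.Lib.Leech.Cert Cfsg.Agent.Lib.Leech.Xi
  Cfsg.Agent.Lib.ConwayP.Bridge
open Cfsg.Agent.Lib.PermComp.Core (force force_eq)
open Cfsg.Agent.Lib.Schur.PcCert Cfsg.Agent.Lib.Schur.PcGroup Cfsg.Agent.Lib.Schur.PcMain
open Cfsg.Agent.Lib.Schur.PcPerm (incB incB_pairwise)
open scoped Pointwise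

/-! ### Running words on packed vectors -/

/-- A valid operation. -/
def opV (o : ℕ × ℕ) : Bool := cond (Nat.beq o.1 0) true (validOp o.1 o.2)

/-- The check of one step, for a valid operation. -/
def stepF (o : ℕ × ℕ) (n n' : ℕ) : Bool :=
  cond (Nat.beq o.1 0) (xiCheck n n') (monCheck o.1 o.2 n n')

theorem step_sound {o : ℕ × ℕ} {n m : ℕ} (hv : opV o = true) (h : stepF o n m = true)
    (hn : dec n ∈ leechLattice) :
    ((opG o • (⟨dec n, hn⟩ : L) : L) : GolayPt → ℤ) = dec m := by
  cases h0 : Nat.beq o.1 0 with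
  | true =>
    have h1 : stepOK o n m = true := by
      unfold stepOK
      unfold stepF at h
      rw [h0] at h ⊢
      exact h
    exact opG_smul h1 hn
  | false =>
    unfold opV at hv
    unfold stepF at h
    rw [h0] at hv h
    exact opG_of_valid (P := o.1) (c := o.2) hv h hn

/-- Run a word on a packed vector, then continue with the image. -/
noncomputable def runK (w : List (ℕ × ℕ)) : ℕ → (ℕ → Bool) → Bool :=
  List.rec (motive := fun _ => ℕ → (ℕ → Bool) → Bool) (fun n k => k n)
    (fun o _ ih n k => force (opImg o n) fun m => cond (stepF o n m) (ih m k) false) w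

theorem runK_nil (n : ℕ) (k : ℕ → Bool) : runK [] n k = k n := rfl

theorem runK_cons (o : ℕ × ℕ) (w : List (ℕ × ℕ)) (n : ℕ) (k : ℕ → Bool) :
    runK (o :: w) n k = cond (stepF o n (opImg o n)) (runK w (opImg o n) k) false := by
  have h : runK (o :: w) n k =
      force (opImg o n) (fun m => cond (stepF o n m) (runK w m k) false) := rfl
  rw [h, force_eq]

theorem runK_sound (w : List (ℕ × ℕ)) (hw : ∀ o ∈ w, opV o = true) {n : ℕ} {k : ℕ → Bool}
    (hn : dec n ∈ leechLattice) (h : runK w n k = true) :
    ∃ m, ∃ hm : dec m ∈ leechLattice, wG w • (⟨dec n, hn⟩ : L) = ⟨dec m, hm⟩ ∧ k m = true := by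
  induction w generalizing n with
  | nil => exact ⟨n, hn, one_smul _ _, h⟩
  | cons o w ih =>
    rw [runK_cons] at h
    cases h1 : stepF o n (opImg o n) with
    | false => rw [h1] at h; exact absurd h (by simp)
    | true =>
      rw [h1] at h
      have h2 := step_sound (hw o List.mem_cons_self) h1 hn
      have hm : dec (opImg o n) ∈ leechLattice := by
        rw [← h2]
        exact (opG o • (⟨dec n, hn⟩ : L)).2
      obtain ⟨m', hm', h3, h4⟩ := ih (fun o' ho' => hw o' (List.mem_cons_of_mem _ ho')) hm h
      refine ⟨m', hm', ?_, h4⟩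
      show (wG w * opG o) • (⟨dec n, hn⟩ : L) = _
      rw [mul_smul]
      have h5 : opG o • (⟨dec n, hn⟩ : L) = ⟨dec (opImg o n), hm⟩ := Subtype.ext h2
      rw [h5, h3]

theorem wG_append (w₁ w₂ : List (ℕ × ℕ)) : wG (w₁ ++ w₂) = wG w₂ * wG w₁ := by
  induction w₁ with
  | nil => simp [wG]
  | cons o w ih =>
    show wG (w ++ w₂) * opG o = wG w₂ * (wG w * opG o)
    rw [ih, mul_assoc]

/-! ### Spanning lists -/

/-- A list of codes of lattice vectors on which elements of `Co0` can be compared. -/
def Spans (Sp : List ℕ) : Prop :=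
  (∀ b ∈ Sp, dec b ∈ leechLattice) ∧
    ∀ g h : Co0, (∀ b, ∀ hb : b ∈ Sp, ∀ hd : dec b ∈ leechLattice,
      g • (⟨dec b, hd⟩ : L) = h • (⟨dec b, hd⟩ : L)) → g = h

open Cfsg.Agent.Lib.Leech.ZBasis in
/-- Comparison on the elements of an `AddSubgroup` containing the basis. -/
theorem eq_of_basis (g h : Co0) (hb : ∀ k, g • bL k = h • bL k) : g = h := by
  have hall : ∀ x : L, g • x = h • x := by
    intro x
    obtain ⟨a, rfl⟩ := exists_comb x
    have : comb a ∈ (toHom g).eqLocus (toHom h) := by
      unfold comb
      apply AddSubgroup.list_sum_mem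
      intro y hy
      obtain ⟨m, -, rfl⟩ := List.mem_map.1 hy
      apply AddSubgroup.zsmul_mem
      exact hb m
    exact this
  apply Subtype.ext
  ext1 x
  exact hall x

open Cfsg.Agent.Lib.Leech.ZBasis in
/-- A criterion for a spanning list in terms of a table. -/
theorem spans_of_table (Sp : List ℕ) (CT : List (List ℤ))
    (hmem : ∀ b ∈ Sp, inL b = true)
    (hlen : Sp.length = 24)
    (ht : ∀ k ∈ List.range 24, ∀ i ∈ List.range 24,
      tab bT k i = ((List.range 24).map fun j =>
        tab CT k j * (((img (Sp.getD j 0) i : ℕ) : ℤ) - 16)).sum) : Spans Sp := by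
  have hm : ∀ b ∈ Sp, dec b ∈ leechLattice := fun b hb => mem_of_inL (hmem b hb)
  refine ⟨hm, fun g h hgh => ?_⟩
  apply eq_of_basis
  intro k
  by_cases hk : k < 24
  · have hE : ∀ j, j < 24 → vecL (Sp.getD j 0) ∈ (toHom g).eqLocus (toHom h) := by
      intro j hj
      have hj' : j < Sp.length := by omega
      have h1 : Sp.getD j 0 ∈ Sp := by
        rw [List.getD_eq_getElem _ _ hj']
        exact List.getElem_mem hj'
      have hd := hm _ h1
      have h2 : vecL (Sp.getD j 0) = ⟨dec (Sp.getD j 0), hd⟩ := Subtype.ext (vecL_coe hd)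
      rw [h2]
      exact hgh _ h1 hd
    have hbk : bL k = ((List.range 24).map fun j => tab CT k j • vecL (Sp.getD j 0)).sum := by
      apply Subtype.ext
      funext p
      show b k p = _
      rw [listSum_val]
      show tab bT k (idx p) = _
      rw [ht k (List.mem_range.2 hk) (idx p) (List.mem_range.2 (idx_lt p))]
      congr 1
      apply List.map_congr_left
      intro j hj
      have hj' : j < Sp.length := by
        have := List.mem_range.1 hj
        omega
      have h1 : Sp.getD j 0 ∈ Sp := by
        rw [List.getD_eq_getElem _ _ hj']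
        exact List.getElem_mem hj'
      have hd := hm _ h1
      show _ = ((tab CT k j • vecL (Sp.getD j 0) : L) : GolayPt → ℤ) p
      have e : ((tab CT k j • vecL (Sp.getD j 0) : L) : GolayPt → ℤ) p =
          tab CT k j * ((vecL (Sp.getD j 0) : L) : GolayPt → ℤ) p := by
        show (tab CT k j • ((vecL (Sp.getD j 0) : L) : GolayPt → ℤ)) p = _
        rfl
      rw [e, vecL_coe hd]
      rfl
    have : bL k ∈ (toHom g).eqLocus (toHom h) := by
      rw [hbk]
      apply AddSubgroup.list_sum_mem
      intro y hy
      obtain ⟨m, hm', rfl⟩ := List.mem_map.1 hy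
      apply AddSubgroup.zsmul_mem
      exact hE m (List.mem_range.1 hm')
    exact this
  · have h0 : bL k = 0 := by
      apply Subtype.ext
      funext p
      show tab bT k (idx p) = 0
      have : bT.getD k [] = [] := by
        apply List.getD_eq_default
        have : bT.length = 24 := rfl
        omega
      unfold tab
      rw [this]
      simp
    rw [h0, smul_zero', smul_zero']

/-- Comparison of two words on a list of vectors. -/
noncomputable def eqK (Sp : List ℕ) (w₁ w₂ : List (ℕ × ℕ)) : Bool :=
  Sp.all fun b => runK w₁ b fun a => runK w₂ b fun c => Nat.beq a c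

theorem eq_of_eqK {Sp : List ℕ} (hS : Spans Sp) {w₁ w₂ : List (ℕ × ℕ)}
    (h₁ : ∀ o ∈ w₁, opV o = true) (h₂ : ∀ o ∈ w₂, opV o = true) (h : eqK Sp w₁ w₂ = true) :
    wG w₁ = wG w₂ := by
  apply hS.2
  intro b hb hd
  have h3 := List.all_eq_true.1 h b hb
  obtain ⟨m, hm, e1, h4⟩ := runK_sound w₁ h₁ hd h3
  obtain ⟨m', hm', e2, h5⟩ := runK_sound w₂ h₂ hd h4
  have : m = m' := Nat.eq_of_beq_eq_true h5
  subst this
  rw [e1, e2]

/-! ### The stabiliser of `u` and words -/

variable {u : L}

/-- The map to `Co0`. -/
def toCo0 (u : L) : KK u →* Co0 where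
  toFun g := ⟨g.1, g.2.1⟩
  map_one' := rfl
  map_mul' _ _ := rfl

theorem toCo0_inj (u : L) : Function.Injective (toCo0 u) := by
  intro a b h
  apply Subtype.ext
  exact congrArg (fun x : Co0 => (x : Equiv.Perm L)) h

/-- The element of a word. -/
noncomputable def kE (u : L) (w : List (ℕ × ℕ)) : KK u := by
  classical
  exact if h : wG w • u = u then ⟨(wG w).1, (wG w).2, h⟩ else 1

theorem toCo0_kE {w : List (ℕ × ℕ)} (h : wG w • u = u) : toCo0 u (kE u w) = wG w := by
  unfold kE
  rw [dif_pos h]
  rfl

/-- All operations are valid and `nU` is fixed. -/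
noncomputable def wordsOK (nU : ℕ) (Ws : List (List (ℕ × ℕ))) : Bool :=
  Ws.all fun w => w.all opV && runK w nU fun m => Nat.beq nU m

/-- The word of a word of letters. -/
def expW (Ls : List (List (ℕ × ℕ))) : List ℕ → List (ℕ × ℕ)
  | [] => []
  | a :: v => expW Ls v ++ Ls.getD a []

theorem expW_append (Ls : List (List (ℕ × ℕ))) (v v' : List ℕ) :
    expW Ls (v ++ v') = expW Ls v' ++ expW Ls v := by
  induction v with
  | nil => simp [expW]
  | cons a v ih => simp [expW, ih, List.append_assoc]

section Words

variable {nU : ℕ} {Ws : List (List (ℕ × ℕ))}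

theorem wordsOK_valid (h : wordsOK nU Ws = true) (f : ℕ) : ∀ o ∈ Ws.getD f [], opV o = true := by
  intro o ho
  by_cases hf : f < Ws.length
  · rw [List.getD_eq_getElem _ _ hf] at ho
    have h1 := List.all_eq_true.1 h _ (List.getElem_mem hf)
    rw [Bool.and_eq_true] at h1
    exact List.all_eq_true.1 h1.1 o ho
  · rw [List.getD_eq_default _ _ (by omega)] at ho
    simp at ho

theorem wordsOK_fix (hu : (u : GolayPt → ℤ) = dec nU) (h : wordsOK nU Ws = true) (f : ℕ) :
    wG (Ws.getD f []) • u = u := by
  by_cases hf : f < Ws.length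
  · rw [List.getD_eq_getElem _ _ hf]
    have h1 := List.all_eq_true.1 h _ (List.getElem_mem hf)
    rw [Bool.and_eq_true] at h1
    have hnU : dec nU ∈ leechLattice := by
      rw [← hu]
      exact u.2
    have hv : ∀ o ∈ Ws[f], opV o = true := fun o ho => List.all_eq_true.1 h1.1 o ho
    obtain ⟨m, hm, e1, h4⟩ := runK_sound _ hv hnU h1.2
    have : nU = m := Nat.eq_of_beq_eq_true h4
    subst this
    have e : u = ⟨dec nU, hnU⟩ := Subtype.ext hu
    rw [e]
    exact e1
  · rw [List.getD_eq_default _ _ (by omega)]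
    exact one_smul _ _

theorem expW_valid (h : wordsOK nU Ws = true) (v : List ℕ) : ∀ o ∈ expW Ws v, opV o = true := by
  induction v with
  | nil => simp [expW]
  | cons a v ih =>
    intro o ho
    simp only [expW, List.mem_append] at ho
    rcases ho with ho | ho
    · exact ih o ho
    · exact wordsOK_valid h a o ho

/-- The letters as elements of the stabiliser. -/
noncomputable def eE (u : L) (Ws : List (List (ℕ × ℕ))) (l : ℕ) : KK u := kE u (Ws.getD l [])

theorem toCo0_eE (hu : (u : GolayPt → ℤ) = dec nU) (h : wordsOK nU Ws = true) (l : ℕ) :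
    toCo0 u (eE u Ws l) = wG (Ws.getD l []) :=
  toCo0_kE (wordsOK_fix hu h l)

theorem toCo0_wEval (hu : (u : GolayPt → ℤ) = dec nU) (h : wordsOK nU Ws = true) (v : List ℕ) :
    toCo0 u (wEval (eE u Ws) v) = wG (expW Ws v) := by
  induction v with
  | nil => exact map_one _
  | cons a v ih =>
    rw [wEval_cons, map_mul, ih, toCo0_eE hu h]
    show _ = wG (expW Ws v ++ Ws.getD a [])
    rw [wG_append]

end Words

/-! ### Lower bounds for the orders of subgroups -/

section Levels

variable {G X : Type*} [Group G] [MulAction G X]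

/-- The pointwise stabiliser of a list, in a subgroup. -/
def Fx (S : Subgroup G) : List X → Subgroup G
  | [] => S
  | x :: l => Fx S l ⊓ MulAction.stabilizer G x

theorem mem_Fx {S : Subgroup G} {l : List X} {g : G} : g ∈ Fx S l ↔ g ∈ S ∧ ∀ x ∈ l, g • x = x := by
  induction l with
  | nil => simp [Fx]
  | cons a l ih =>
    simp only [Fx, Subgroup.mem_inf, ih, MulAction.mem_stabilizer_iff, List.mem_cons, forall_eq_or_imp]
    tauto

theorem card_Fx_step [Finite G] {S : Subgroup G} {l : List X} {b : X} {k : ℕ} (a : Fin k → G)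
    (ha : ∀ i, a i ∈ Fx S l) (hinj : Function.Injective fun i => a i • b) :
    k * Nat.card (Fx S (b :: l)) ≤ Nat.card (Fx S l) := by
  have hle : Fx S (b :: l) ≤ Fx S l := inf_le_left
  let ψ : Fin k × Fx S (b :: l) → Fx S l := fun q => ⟨a q.1 * q.2.1, (Fx S l).mul_mem (ha _) (hle q.2.2)⟩
  have hψ : Function.Injective ψ := by
    rintro ⟨i, h⟩ ⟨j, h'⟩ e
    have e1 : a i * h.1 = a j * h'.1 := congrArg Subtype.val e
    have hb : h.1 • b = b := (Subgroup.mem_inf.1 h.2).2
    have hb' : h'.1 • b = b := (Subgroup.mem_inf.1 h'.2).2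
    have e2 : a i • b = a j • b := by
      have := congrArg (· • b) e1
      simp only [mul_smul, hb, hb'] at this
      exact this
    have e3 : i = j := hinj e2
    subst e3
    have e4 : h.1 = h'.1 := mul_left_cancel e1
    have : h = h' := Subtype.ext e4
    rw [this]
  have := Nat.card_le_card_of_injective ψ hψ
  rwa [Nat.card_prod, Nat.card_fin] at this

end Levels

/-- The check of the levels. -/
noncomputable def lvOK (Ls : List (List (ℕ × ℕ))) (n : ℕ) :
    List (ℕ × List (List ℕ)) → List ℕ → Bool
  | [], _ => true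
  | q :: rest, prev =>
    inL q.1 &&
    (q.2.all fun v => (v.all fun a => Nat.blt a n) && prev.all fun x => runK (expW Ls v) x fun m => Nat.beq x m) &&
    incB (q.2.map fun v => wImg (expW Ls v) q.1) &&
    (q.2.all fun v => Nat.beq (fpD (wImg (expW Ls v) q.1) 24) (wImg (expW Ls v) q.1) &&
      runK (expW Ls v) q.1 fun m => Nat.beq (wImg (expW Ls v) q.1) m) &&
    lvOK Ls n rest (q.1 :: prev)

section Order

variable {nU : ℕ} {Ls : List (List (ℕ × ℕ))}

theorem card_levels [Finite (KK u)] (hu : (u : GolayPt → ℤ) = dec nU) (hL : wordsOK nU Ls = true) (n : ℕ) :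
    ∀ (Lv : List (ℕ × List (List ℕ))) (prev : List ℕ), (∀ x ∈ prev, dec x ∈ leechLattice) →
      lvOK Ls n Lv prev = true →
      (Lv.map fun q => q.2.length).prod ≤
        Nat.card (Fx (chain (eE u Ls) n ⊥ 0) (prev.map vecL)) := by
  intro Lv
  induction Lv with
  | nil =>
    intro prev _ _
    simp only [List.map_nil, List.prod_nil]
    exact Nat.card_pos
  | cons q rest ih =>
    intro prev hprev h
    simp only [lvOK, Bool.and_eq_true, List.all_eq_true] at h
    obtain ⟨⟨⟨⟨hb, hvs⟩, hinc⟩, hims⟩, hrest⟩ := h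
    have hbm : dec q.1 ∈ leechLattice := mem_of_inL hb
    have hr := ih (q.1 :: prev) (by
      intro x hx
      rcases List.mem_cons.1 hx with rfl | hx
      · exact hbm
      · exact hprev x hx) hrest
    simp only [List.map_cons, List.prod_cons]
    have hact : ∀ (v : List ℕ) (x : ℕ) (hx : dec x ∈ leechLattice) (m : ℕ),
        runK (expW Ls v) x (fun m' => Nat.beq m m') = true →
        (wEval (eE u Ls) v) • vecL x = vecL m := by
      intro v x hx m hr
      obtain ⟨m', hm', e1, e2⟩ := runK_sound _ (expW_valid hL v) hx hr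
      have : m = m' := Nat.eq_of_beq_eq_true e2
      subst this
      have h1 : vecL x = ⟨dec x, hx⟩ := Subtype.ext (vecL_coe hx)
      have h2 : vecL m = ⟨dec m, hm'⟩ := Subtype.ext (vecL_coe hm')
      rw [h1, h2, ← e1, ← toCo0_wEval hu hL]
      rfl
    let a : Fin q.2.length → KK u := fun i => wEval (eE u Ls) q.2[i]
    have ha : ∀ i, a i ∈ Fx (chain (eE u Ls) n ⊥ 0) (prev.map vecL) := by
      intro i
      have hv := hvs q.2[i] (List.getElem_mem i.2)
      obtain ⟨h1, h2⟩ := hv
      rw [mem_Fx]
      constructor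
      · apply wEval_mem_chain
        intro x hx
        refine ⟨Nat.zero_le _, ?_⟩
        have := h1 x hx
        simpa [Nat.blt_eq] using this
      · intro y hy
        obtain ⟨x, hx, rfl⟩ := List.mem_map.1 hy
        exact hact _ x (hprev x hx) x (h2 x hx)
    have hinj : Function.Injective fun i => a i • vecL q.1 := by
      intro i j e
      have hi := hims q.2[i] (List.getElem_mem i.2)
      have hj := hims q.2[j] (List.getElem_mem j.2)
      have e1 := hact _ _ hbm _ hi.2
      have e2 := hact _ _ hbm _ hj.2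
      have e3 : vecL (wImg (expW Ls q.2[i]) q.1) = vecL (wImg (expW Ls q.2[j]) q.1) := by
        rw [← e1, ← e2]
        exact e
      -- the images are in the lattice
      obtain ⟨mi, hmi, ei, fi⟩ := runK_sound _ (expW_valid hL q.2[i]) hbm hi.2
      obtain ⟨mj, hmj, ej, fj⟩ := runK_sound _ (expW_valid hL q.2[j]) hbm hj.2
      have hmi' : wImg (expW Ls q.2[i]) q.1 = mi := Nat.eq_of_beq_eq_true fi
      have hmj' : wImg (expW Ls q.2[j]) q.1 = mj := Nat.eq_of_beq_eq_true fj
      have e4 : dec (wImg (expW Ls q.2[i]) q.1) = dec (wImg (expW Ls q.2[j]) q.1) := by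
        have := congrArg Subtype.val e3
        rw [vecL_coe (by rw [hmi']; exact hmi), vecL_coe (by rw [hmj']; exact hmj)] at this
        exact this
      have e5 := code_eq_of_dec (Nat.eq_of_beq_eq_true hi.1) (Nat.eq_of_beq_eq_true hj.1) e4
      have hpw := incB_pairwise hinc
      have hnd : (q.2.map fun v => wImg (expW Ls v) q.1).Nodup := hpw.imp (fun h => h.ne)
      have hlen : ∀ k : Fin q.2.length, k.1 < (q.2.map fun v => wImg (expW Ls v) q.1).length := by
        intro k
        simp
      have := (List.Nodup.getElem_inj_iff hnd (hi := hlen i) (hj := hlen j)).1 (by simpa using e5)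
      exact Fin.ext this
    have hstep := card_Fx_step a ha hinj
    calc q.2.length * (rest.map fun q => q.2.length).prod
        ≤ q.2.length * Nat.card (Fx (chain (eE u Ls) n ⊥ 0) ((q.1 :: prev).map vecL)) :=
          Nat.mul_le_mul_left _ hr
      _ ≤ _ := hstep

end Order

/-! ### The main theorem -/

/-- The relations of one letter. -/
noncomputable def rowOK (Sp : List ℕ) (Ls : List (List (ℕ × ℕ))) (c : Cert) (j : ℕ) : Bool :=
  eqK Sp (expW Ls (List.replicate c.p j)) (expW Ls (c.rule j j)) &&
    (List.range j).all fun i => eqK Sp (expW Ls [j, i]) (expW Ls (i :: c.rule j i))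

/-- The relations of one fusion item. -/
noncomputable def itemOK (Sp : List ℕ) (Ls Ys : List (List (ℕ × ℕ))) (c : Cert) (f : ℕ) : Bool :=
  Nat.beq (c.items.getD f ([], [])).1.length (c.items.getD f ([], [])).2.length &&
    (List.range (c.items.getD f ([], [])).1.length).all fun l =>
      eqK Sp (Ys.getD f [] ++ expW Ls (c.lett f l)) (expW Ls (c.letb f l) ++ Ys.getD f [])

section Main

variable {Γ : Type*} [Group Γ]

/-- The main theorem of this file. -/
theorem card_ker_dvd {nU : ℕ} (hu : (u : GolayPt → ℤ) = dec nU) [Finite (KK u)] (c : Cert)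
    (hc : c.check = true) {Sp : List ℕ} (hS : Spans Sp) {Ls Ys : List (List (ℕ × ℕ))}
    (hL : wordsOK nU Ls = true) (hY : wordsOK nU Ys = true)
    (hrow : ∀ j < c.n, rowOK Sp Ls c j = true)
    (hit : ∀ f < c.items.length, itemOK Sp Ls Ys c f = true)
    (Lv : List (ℕ × List (List ℕ))) (hLv : lvOK Ls c.n Lv [] = true)
    (hprod : (Lv.map fun q => q.2.length).prod = c.p ^ c.n)
    {p : ℕ} [Fact p.Prime] (hpc : c.p = p) [Finite Γ] {σ : Γ →* KK u} (hσ : IsStemExtension σ)
    {m : ℕ} (hG : Nat.card (KK u) = c.p ^ c.n * m) (hm : ¬ p ∣ m) (P : Sylow p Γ) :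
    Nat.card (σ.subgroupMap (P : Subgroup Γ)).ker ∣ c.zm := by
  have hinj := toCo0_inj u
  have hword : ∀ v v' : List ℕ, eqK Sp (expW Ls v) (expW Ls v') = true →
      wEval (eE u Ls) v = wEval (eE u Ls) v' := by
    intro v v' h
    apply hinj
    rw [toCo0_wEval hu hL, toCo0_wEval hu hL]
    exact eq_of_eqK hS (expW_valid hL v) (expW_valid hL v') h
  refine card_ker_sylow_dvd c hc hpc hσ (eE u Ls) (fun f => eE u Ys f) ?_ ?_ ?_ ?_ hG hm P
  · intro j i hij hj
    have h1 := hrow j hj
    rw [rowOK, Bool.and_eq_true, List.all_eq_true] at h1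
    have := hword _ _ (h1.2 i (List.mem_range.2 hij))
    simpa [wEval_cons] using this
  · intro i hi
    have h1 := hrow i hi
    rw [rowOK, Bool.and_eq_true] at h1
    have := hword _ _ h1.1
    rwa [wEval_replicate] at this
  · intro f l
    by_cases hff : f < c.items.length
    · have h1 := hit f hff
      rw [itemOK, Bool.and_eq_true, List.all_eq_true] at h1
      by_cases hl : l < (c.items.getD f ([], [])).1.length
      · have h2 := h1.2 l (List.mem_range.2 hl)
        rw [mul_assoc, inv_mul_eq_iff_eq_mul]
        apply hinj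
        rw [map_mul, map_mul, toCo0_wEval hu hL, toCo0_wEval hu hL, toCo0_eE hu hY]
        have hv1 : ∀ o ∈ Ys.getD f [] ++ expW Ls (c.lett f l), opV o = true := by
          intro o ho
          rcases List.mem_append.1 ho with ho | ho
          · exact wordsOK_valid hY f o ho
          · exact expW_valid hL _ o ho
        have hv2 : ∀ o ∈ expW Ls (c.letb f l) ++ Ys.getD f [], opV o = true := by
          intro o ho
          rcases List.mem_append.1 ho with ho | ho
          · exact expW_valid hL _ o ho
          · exact wordsOK_valid hY f o ho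
        have h3 := eq_of_eqK hS hv1 hv2 h2
        rw [wG_append, wG_append] at h3
        exact h3
      · have e1 : c.lett f l = [] := by
          rw [Cert.lett, List.getD_eq_default _ _ (by omega)]
        have e2 : c.letb f l = [] := by
          have hlen := Nat.eq_of_beq_eq_true h1.1
          rw [Cert.letb, List.getD_eq_default _ _ (by omega)]
        rw [e1, e2]
        simp
    · have e1 : c.lett f l = [] := by
        rw [Cert.lett, List.getD_eq_default c.items _ (by omega)]
        simp
      have e2 : c.letb f l = [] := by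
        rw [Cert.letb, List.getD_eq_default c.items _ (by omega)]
        simp
      rw [e1, e2]
      simp
  · rw [← hprod]
    have := card_levels hu hL c.n Lv [] (by simp) hLv
    simpa [Fx] using this

end Main

end Cfsg.Agent.Lib.ConwayP.LatPc
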